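import Cfsg.Agent.Lib.SporRecognition.CosetCert.Tables
import Mathlib.Data.ZMod.Basic

/-!
Lifting permutations given by tables to `Fin n × ZMod 3` by a cocycle: the entry of a combined table at `u`
is `64 * (image of u) + shift`.
-/

set_option autoImplicit false

namespace CfsgLib.ONMult

open CfsgLib.SporRecognition.CosetCert

variable {α : Type*}

/-- One step: state is `64 * point + accumulated shift`. -/
noncomputable def lstep (W : Nat → Nat) (s : Nat) : Nat :=
  Nat.add (W (Nat.shiftRight s 6)) (Nat.land s 63)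

/-- The combined tables of a word, in order of application. -/
noncomputable def ltabs (W : α → Bool → Nat → Nat) (w : List (α × Bool)) : List (Nat → Nat) :=
  w.reverse.map fun x => lstep (W x.1 x.2)

/-- The two tables are inverse lifts. -/
noncomputable def pairStep (P Q : Nat → Nat) (n u : Nat) : Bool :=
  Nat.blt (Nat.shiftRight (P u) 6) n && Nat.ble (Nat.land (P u) 63) 2 &&
    Nat.beq (Q (Nat.shiftRight (P u) 6)) (Nat.add (Nat.mul u 64) (Nat.mod (Nat.sub 3 (Nat.land (P u) 63)) 3))

/-- The lifted word is the shift by `k`. -/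
noncomputable def liftStep (ts : List (Nat → Nat)) (k u : Nat) : Bool :=
  Nat.beq (Nat.shiftRight (trace ts (Nat.mul u 64)) 6) u &&
    Nat.beq (Nat.mod (Nat.land (trace ts (Nat.mul u 64)) 63) 3) k

/-- The combined tables are mutually inverse lifts of permutations of `[0, n)`. -/
def LiftOK (W : α → Bool → Nat → Nat) (n : Nat) : Prop :=
  ∀ a b u, u < n → pairStep (W a b) (W a (!b)) n u = true

variable {n : Nat} {W : α → Bool → Nat → Nat}

/-- The parts of a table entry. -/
theorem LiftOK.parts (h : LiftOK W n) (a : α) (b : Bool) {u : Nat} (hu : u < n) :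
    W a b u >>> 6 < n ∧ (W a b u &&& 63) ≤ 2 ∧
      W a (!b) (W a b u >>> 6) = u * 64 + (3 - (W a b u &&& 63)) % 3 := by
  have := h a b u hu
  simp only [pairStep, Bool.and_eq_true] at this
  obtain ⟨⟨h1, h2⟩, h3⟩ := this
  exact ⟨by simpa [Nat.blt_eq] using h1, Nat.le_of_ble_eq_true h2, Nat.eq_of_beq_eq_true h3⟩

theorem split64 (x : Nat) : x = (x >>> 6) * 64 + (x &&& 63) := by
  rw [Nat.shiftRight_eq_div_pow, show (63 : Nat) = 2 ^ 6 - 1 from rfl, Nat.and_two_pow_sub_one_eq_mod]
  omega

theorem high64 (t a : Nat) (ha : a < 64) : (t * 64 + a) >>> 6 = t ∧ (t * 64 + a) &&& 63 = a := by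
  rw [Nat.shiftRight_eq_div_pow, show (63 : Nat) = 2 ^ 6 - 1 from rfl, Nat.and_two_pow_sub_one_eq_mod]
  omega

/-- Image of a lifted point. -/
noncomputable def liftMap (h : LiftOK W n) (a : α) (b : Bool) (p : Fin n × ZMod 3) : Fin n × ZMod 3 :=
  (⟨W a b p.1 >>> 6, (h.parts a b p.1.2).1⟩, p.2 + ((W a b p.1 &&& 63 : Nat) : ZMod 3))

theorem liftMap_not (h : LiftOK W n) (a : α) (b : Bool) (p : Fin n × ZMod 3) :
    liftMap h a (!b) (liftMap h a b p) = p := by
  obtain ⟨h1, h2, h3⟩ := h.parts a b p.1.2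
  obtain ⟨e1, e2⟩ := high64 (p.1 : Nat) ((3 - (W a b p.1 &&& 63)) % 3) (by omega)
  refine Prod.ext (Fin.ext ?_) ?_
  · simp only [liftMap]
    rw [h3, e1]
  · simp only [liftMap]
    rw [h3, e2]
    generalize W a b p.1 &&& 63 = x at h2
    have : (x : ZMod 3) + (((3 - x) % 3 : Nat) : ZMod 3) = 0 := by interval_cases x <;> decide
    rw [add_assoc, this, add_zero]

/-- The lifted permutation of a letter. -/
noncomputable def liftPerm (h : LiftOK W n) (a : α) : Equiv.Perm (Fin n × ZMod 3) where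
  toFun := liftMap h a true
  invFun := liftMap h a false
  left_inv := liftMap_not h a true
  right_inv := liftMap_not h a false

/-- The shift of the fibres. -/
def shiftPerm (n : Nat) : Equiv.Perm (Fin n × ZMod 3) where
  toFun p := (p.1, p.2 + 1)
  invFun p := (p.1, p.2 - 1)
  left_inv p := by simp
  right_inv p := by simp

theorem shiftPerm_pow (k : Nat) (p : Fin n × ZMod 3) : (shiftPerm n ^ k) p = (p.1, p.2 + (k : ZMod 3)) := by
  induction k generalizing p with
  | zero => simp
  | succ k ih =>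
    rw [pow_succ, Equiv.Perm.mul_apply, ih]
    simp only [shiftPerm, Equiv.coe_fn_mk]
    push_cast
    ring_nf

theorem liftPerm_comm_shift (h : LiftOK W n) (a : α) :
    shiftPerm n * liftPerm h a = liftPerm h a * shiftPerm n := by
  ext p <;> simp [shiftPerm, liftPerm, liftMap, Equiv.Perm.mul_apply, add_right_comm]

theorem ltabs_cons (x : α × Bool) (w : List (α × Bool)) :
    ltabs W (x :: w) = ltabs W w ++ [lstep (W x.1 x.2)] := by
  simp [ltabs]

theorem evalW_liftPerm (h : LiftOK W n) (w : List (α × Bool)) (hw : 2 * w.length < 64) (p : Fin n × ZMod 3) :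
    ∃ s t, ∃ ht : t < n, trace (ltabs W w) ((p.1 : Nat) * 64) = t * 64 + s ∧ s ≤ 2 * w.length ∧
      evalW (liftPerm h) w p = (⟨t, ht⟩, p.2 + (s : ZMod 3)) := by
  induction w with
  | nil => exact ⟨0, p.1, p.1.2, by simp [ltabs], le_rfl, by simp [evalW_eq_prod]⟩
  | cons x w ih =>
    obtain ⟨s, t, ht, e, hs, he⟩ := ih (by simp at hw; omega)
    obtain ⟨h1, h2, -⟩ := h.parts x.1 x.2 ht
    obtain ⟨e1, e2⟩ := high64 t s (by simp at hw; omega)
    refine ⟨(W x.1 x.2 t &&& 63) + s, W x.1 x.2 t >>> 6, h1, ?_, by simp; omega, ?_⟩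
    · have hl : lstep (W x.1 x.2) (t * 64 + s) = W x.1 x.2 t + s := by
        show W x.1 x.2 ((t * 64 + s) >>> 6) + ((t * 64 + s) &&& 63) = _
        rw [e1, e2]
      rw [ltabs_cons, trace_append, e, trace_cons, trace_nil, hl]
      have := split64 (W x.1 x.2 t)
      omega
    · rw [show x :: w = [x] ++ w from rfl, evalW_append, Equiv.Perm.mul_apply, he]
      obtain ⟨a, _ | _⟩ := x <;>
        simp [evalW_eq_prod, liftPerm, liftMap, Equiv.Perm.inv_def, add_assoc, add_comm (s : ZMod 3)]

/-- Soundness of the check. -/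
theorem evalW_liftPerm_eq (h : LiftOK W n) (w : List (α × Bool)) (k : Nat) (hw : Nat.blt (2 * w.length) 64 = true)
    (hc : ∀ u, u < n → liftStep (ltabs W w) k u = true) :
    evalW (liftPerm h) w = shiftPerm n ^ k := by
  refine Equiv.ext fun p => ?_
  obtain ⟨s, t, ht, e, hs, he⟩ := evalW_liftPerm h w (by simpa [Nat.blt_eq] using hw) p
  have := hc p.1 p.1.2
  simp only [liftStep, Bool.and_eq_true] at this
  obtain ⟨h1, h2⟩ := this
  have h1' := Nat.eq_of_beq_eq_true h1
  have h2' := Nat.eq_of_beq_eq_true h2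
  change trace (ltabs W w) ((p.1 : Nat) * 64) >>> 6 = (p.1 : Nat) at h1'
  change (trace (ltabs W w) ((p.1 : Nat) * 64) &&& 63) % 3 = k at h2'
  obtain ⟨e1, e2⟩ := high64 t s (by simp [Nat.blt_eq] at hw; omega)
  rw [e, e1] at h1'
  rw [e, e2] at h2'
  rw [he, shiftPerm_pow, ← h2', ZMod.natCast_mod]
  subst h1'
  rfl

end CfsgLib.ONMult
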