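import Cfsg.Agent.Lib.ONMult.Upper
import Cfsg.Agent.Lib.ONMult.Cover

/-! The Schur multiplier of the O'Nan group is cyclic of order three. -/

set_option autoImplicit false
set_option linter.style.haveILetI false

namespace CfsgLib.ONMult

open CfsgLib.SchurMult

theorem prime_dvd_ker_eq_three (Γ : Type) [Group Γ] [Finite Γ] (σ : Γ →* Cfsg.Spor.ON)
    (hσ : Cfsg.IsStemExtension σ) {p : ℕ} (hp : p.Prime) (hd : p ∣ Nat.card σ.ker) : p = 3 := by
  haveI := on_finite
  haveI := Fact.mk hp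
  obtain ⟨x, hx⟩ := exists_prime_orderOf_dvd_card' p hd
  have hpd : p ∣ 460815505920 := by
    rw [← on_card, ← hx, ← Subgroup.orderOf_coe]
    exact orderOf_dvd_of_pow_eq_one (ker_pow_card hσ x.2)
  have hpd' : p ∣ 2 ^ 9 * 3 ^ 4 * 5 * 7 ^ 3 * 11 * 19 * 31 := by norm_num; exact hpd
  simp only [hp.dvd_mul] at hpd'
  rcases hpd' with (((((h | h) | h) | h) | h) | h) | h
  · obtain rfl := (Nat.prime_dvd_prime_iff_eq hp Nat.prime_two).1 (hp.dvd_of_dvd_pow h)
    exact absurd hd (not_two_dvd Γ σ hσ)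
  · exact (Nat.prime_dvd_prime_iff_eq hp Nat.prime_three).1 (hp.dvd_of_dvd_pow h)
  · obtain rfl := (Nat.prime_dvd_prime_iff_eq hp Nat.prime_five).1 h
    exact absurd hd (not_dvd_card_ker_of_sq_not_dvd hσ hp (by rw [on_card]; norm_num))
  · obtain rfl := (Nat.prime_dvd_prime_iff_eq hp (by norm_num)).1 (hp.dvd_of_dvd_pow h)
    exact absurd hd (not_seven_dvd Γ σ hσ)
  · obtain rfl := (Nat.prime_dvd_prime_iff_eq hp (by norm_num)).1 h
    exact absurd hd (not_dvd_card_ker_of_sq_not_dvd hσ hp (by rw [on_card]; norm_num))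
  · obtain rfl := (Nat.prime_dvd_prime_iff_eq hp (by norm_num)).1 h
    exact absurd hd (not_dvd_card_ker_of_sq_not_dvd hσ hp (by rw [on_card]; norm_num))
  · obtain rfl := (Nat.prime_dvd_prime_iff_eq hp (by norm_num)).1 h
    exact absurd hd (not_dvd_card_ker_of_sq_not_dvd hσ hp (by rw [on_card]; norm_num))

theorem hasCyclicSchurMultiplier_on : Cfsg.HasCyclicSchurMultiplier Cfsg.Spor.ON 3 := by
  haveI := on_finite
  refine ⟨exists_cover, fun Γ _ _ σ hσ => ?_⟩
  obtain ⟨H, hH, c, hc, hcl⟩ := exists_three Γ σ hσ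
  have hcard : Nat.card σ.ker = 3 ^ (Nat.card σ.ker).primeFactorsList.length :=
    Nat.eq_prime_pow_of_unique_prime_dvd Nat.card_pos.ne' fun hd hp => prime_dvd_ker_eq_three Γ σ hσ hd hp
  have hle : σ.ker ≤ Subgroup.zpowers c := fun z hz =>
    hcl z (mem_commutator_of_pow_eq_one hσ Nat.prime_three H hH hz
      (k := (Nat.card σ.ker).primeFactorsList.length) (by
        have h := congrArg Subtype.val (pow_card_eq_one' (x := (⟨z, hz⟩ : σ.ker)))
        rw [hcard] at h
        simpa using h)) hz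
  haveI : IsCyclic σ.ker := Subgroup.isCyclic_of_le hle
  obtain ⟨g, hg⟩ := IsCyclic.exists_generator (α := σ.ker)
  have hg3 : g ^ 3 = 1 := by
    obtain ⟨j, hj⟩ := hle g.2
    apply Subtype.ext
    rw [Subgroup.coe_pow, Subgroup.coe_one, ← hj]
    show (c ^ j) ^ 3 = 1
    rw [← zpow_natCast, ← zpow_mul, mul_comm, zpow_mul, zpow_natCast, hc, one_zpow]
  haveI : IsMulCommutative σ.ker :=
    ⟨⟨fun a b => Subtype.ext (Subgroup.mem_center_iff.1 (hσ.2.1 b.2) (a : Γ))⟩⟩
  refine ⟨AddMonoidHom.toMultiplicativeLeft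
    (ZMod.lift 3 ⟨zmultiplesHom (Additive σ.ker) (Additive.ofMul g), ?_⟩), ?_⟩
  · apply Additive.toMul.injective
    simpa [zmultiplesHom_apply] using hg3
  · intro x
    obtain ⟨j, rfl⟩ := hg x
    exact ⟨Multiplicative.ofAdd (j : ZMod 3), by simp [zmultiplesHom_apply]⟩

end CfsgLib.ONMult
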